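import Cfsg.Agent.Lib.Leech9.Enum

/-! Upper bounds for the order of centralisers in the automorphism group of the lattice from a
base of minimal vectors and their Gram invariants. -/

set_option autoImplicit false
set_option exponentiation.threshold 800
set_option maxRecDepth 100000

namespace H9.Lch

open Cfsg Finset H15 H16

/-- offset of the fast scalar product -/
def KD : ℕ := 0x80008100820083008400850086008700880089008a008b008c008d008e008f00900091009200930094009500960097009800970096009500940093009200910090008f008e008d008c008b008a00890088008700860085008400830082008100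

theorem KD_eq : (KD : ℤ) = ev 48 (fun _ => 32768) + OFF * OFF := by decide +kernel

/-- scalar product of a code with a reversed code -/
def dotF (a b : ℕ) : ℕ := Nat.land (Nat.shiftRight
  (Nat.sub (Nat.add (Nat.mul a b) KD) (Nat.mul OFF (Nat.add a b))) 368) 65535

theorem ev_conv' (x y : ℕ → ℤ) : ev 24 x * ev 24 y =
    ev 48 (fun p => ∑ i ∈ range 24, x i * (if i ≤ p ∧ p < i + 24 then y (p - i) else 0)) := by
  have h : ∀ i ∈ range 24, x i * 65536 ^ i * ev 24 y =
      ∑ p ∈ range 48, x i * (if i ≤ p ∧ p < i + 24 then y (p - i) else 0) * 65536 ^ p := by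
    intro i hi
    rw [mul_assoc, ev_shift (N := 48) (by have := Finset.mem_range.1 hi; omega), ← ev_mul]
    rfl
  show (∑ i ∈ range 24, x i * 65536 ^ i) * _ = ∑ p ∈ range 48, (∑ i ∈ range 24, _) * _
  rw [Finset.sum_mul, Finset.sum_congr rfl h, Finset.sum_comm]
  exact Finset.sum_congr rfl fun p _ => (Finset.sum_mul _ _ _).symm

theorem dotF_eq {a b : ℕ} {x y : ℕ → ℤ} (ha : (a : ℤ) = ev 24 fun i => x i + 16)
    (hb : (b : ℤ) = ev 24 fun i => y i + 16) (hx : ∀ i, |x i| ≤ 16) (hy : ∀ i, |y i| ≤ 16) :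
    (dotF a b : ℤ) = ∑ i ∈ range 24, x i * y (23 - i) + 32768 := by
  set c : ℕ → ℤ := fun p =>
    (∑ i ∈ range 24, x i * (if i ≤ p ∧ p < i + 24 then y (p - i) else 0)) + 32768 with hc
  have e1 : (a : ℤ) * b + KD - OFF * (a + b) = ev 48 c := by
    rw [hc, ev_add, ← ev_conv', KD_eq, ha, hb, ev_add, ev_add, ← OFF_eq]
    ring
  have hcb : ∀ p < 48, 0 ≤ c p ∧ c p < 65536 := by
    intro p _
    have hb : |∑ i ∈ range 24, x i * (if i ≤ p ∧ p < i + 24 then y (p - i) else 0)| ≤
        ∑ i ∈ range 24, (256 : ℤ) := by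
      refine le_trans (Finset.abs_sum_le_sum_abs _ _) (Finset.sum_le_sum fun i _ => ?_)
      have h2 : |if i ≤ p ∧ p < i + 24 then y (p - i) else 0| ≤ 16 := by
        split_ifs
        · exact hy _
        · simp
      rw [abs_mul]
      exact le_trans (mul_le_mul (hx i) h2 (abs_nonneg _) (by norm_num)) (by norm_num)
    rw [Finset.sum_const, Finset.card_range, abs_le] at hb
    simp only [nsmul_eq_mul, Nat.cast_ofNat] at hb
    simp only [hc]
    constructor <;> linarith [hb.1, hb.2]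
  have hle : OFF * (a + b) ≤ a * b + KD := by
    have : (0 : ℤ) ≤ (a : ℤ) * b + KD - OFF * (a + b) := by
      rw [e1]; exact ev_nonneg fun p hp => (hcb p hp).1
    exact_mod_cast sub_nonneg.1 this
  have e2 : ((Nat.sub (Nat.add (Nat.mul a b) KD) (Nat.mul OFF (Nat.add a b)) : ℕ) : ℤ) = ev 48 c := by
    rw [← e1, Nat.sub_eq, Nat.add_eq, Nat.mul_eq, Nat.mul_eq, Nat.add_eq, Nat.cast_sub hle]
    push_cast
    rfl
  have h3 := (lt_of_ev e2 hcb).2 23 (by norm_num)
  have h4 : dotF a b = dg (Nat.sub (Nat.add (Nat.mul a b) KD) (Nat.mul OFF (Nat.add a b))) 23 := by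
    unfold dotF dg
    rw [show Nat.mul 16 23 = 368 from rfl]
  rw [h4, h3, hc]
  refine congrArg (· + 32768) (Finset.sum_congr rfl fun i hi => ?_)
  have := Finset.mem_range.1 hi
  rw [if_pos (by omega)]

/-- multiplier of the matrix with the rows in reverse order -/
def matJ (P : ℕ) : ℕ := mkR fun j i => dg P (Nat.add (Nat.mul 24 i) (Nat.sub 23 j))

/-- `J` is the reversed multiplier of `g` -/
def IsJ (J : ℕ) (g : Co0) : Prop := ∃ P, IsM P g ∧ J = matJ P

theorem isJ_of {P J : ℕ} {g : Co0} (h : IsM P g) (e : Nat.beq (matJ P) J = true) : IsJ J g :=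
  ⟨P, h, (Nat.eq_of_beq_eq_true e).symm⟩

theorem IsJ.app {J : ℕ} {g : Co0} (h : IsJ J g) {a : ℕ} {v : leechLattice} (hv : Code a v)
    (hn : sqNorm (v : GolayPt → ℤ) ≤ 256) :
    (app J a : ℤ) = ev 24 fun j => ((g • v : leechLattice) : GolayPt → ℤ) (pt (23 - j)) + 16 := by
  obtain ⟨P, h, hR⟩ := h
  rw [hR]
  have hn' : sqNorm ((g • v : leechLattice) : GolayPt → ℤ) ≤ 256 := by rwa [sqNorm_co0]
  have hs : ∀ j < 24, ∑ i ∈ range 24, ((dg P (Nat.add (Nat.mul 24 i) (Nat.sub 23 j)) : ℤ) - 16) *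
      ((dg a i : ℤ) - 16) = 8 * ((g • v : leechLattice) : GolayPt → ℤ) (pt (23 - j)) := by
    intro j hj
    rw [eight_mul_co0, sum_pt]
    refine Finset.sum_congr rfl fun i hi => ?_
    rw [← h.entry (Finset.mem_range.1 hi) (j := 23 - j) (by omega), hv.dg_eq (Finset.mem_range.1 hi),
      mul_comm]
    rfl
  have e := raw_eq isK128 (by norm_num)
    (e := fun j i => dg P (Nat.add (Nat.mul 24 i) (Nat.sub 23 j)))
    (fun j hj i hi => by
      have h1 := h.entry hi (j := 23 - j) (by omega)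
      have h2 := abs_le_of_norm (x := ((g • e8 (pt i) : leechLattice) : GolayPt → ℤ)) (k := 8)
        (by norm_num) (by rw [sqNorm_co0, sqNorm_e8]; norm_num) (pt (23 - j))
      show dg P (24 * i + (23 - j)) ≤ 32
      omega) hv.1
    (fun i hi => by
      have h1 := hv.dg_eq hi
      have h2 := abs_le_of_norm (k := 16) (by norm_num) hn (pt i)
      omega)
    (fun j hj => by
      have h2 := abs_le_of_norm (k := 16) (by norm_num) hn' (pt (23 - j))
      rw [hs j hj]; omega)
  have e2 : (raw K128 (matJ P) a : ℤ) =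
      8 * ev 24 (fun i => ((g • v : leechLattice) : GolayPt → ℤ) (pt (23 - i)) + 16) := by
    rw [← ev_mul]
    exact e.trans (ev_congr fun j hj => by rw [hs j hj]; ring)
  have e3 : H16.app (matJ P) a = raw K128 (matJ P) a / 8 := Nat.shiftRight_eq_div_pow _ 3
  rw [e3]
  omega

/-- the quadratic form `(v, g v)` -/
def qf (J a : ℕ) : ℕ := dotF a (app J a)

theorem IsJ.qf_eq {J : ℕ} {g : Co0} (h : IsJ J g) {a : ℕ} {v : leechLattice} (hv : Code a v)
    (hn : sqNorm (v : GolayPt → ℤ) ≤ 256) : (qf J a : ℤ) =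
      dotInt (v : GolayPt → ℤ) ((g • v : leechLattice) : GolayPt → ℤ) + 32768 := by
  have hn' : sqNorm ((g • v : leechLattice) : GolayPt → ℤ) ≤ 256 := by rwa [sqNorm_co0]
  unfold qf
  rw [dotF_eq hv.ev_eq (h.app hv hn)
    (fun i => abs_le.2 (abs_le_of_norm (k := 16) (by norm_num) hn (pt i)))
    (fun i => abs_le.2 (abs_le_of_norm (k := 16) (by norm_num) hn' _)), dotInt_def, sum_pt]
  refine congrArg (· + 32768) (Finset.sum_congr rfl fun i hi => ?_)
  have := Finset.mem_range.1 hi
  rw [show 23 - (23 - i) = i by omega]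

/-- functions of codes of minimal vectors that are invariant under `H` -/
def Inv {β : Type} (H : Subgroup Co0) (F : ℕ → β) : Prop :=
  ∀ h ∈ H, ∀ v ∈ H16.Min, ∀ a b, Code a v → Code b (h • v) → F b = F a

theorem Inv.mono {β : Type} {H K : Subgroup Co0} {F : ℕ → β} (h : Inv H F) (e : K ≤ H) : Inv K F :=
  fun g hg => h g (e hg)

theorem min_le {v : leechLattice} (hv : v ∈ H16.Min) : sqNorm (v : GolayPt → ℤ) ≤ 256 := by
  rw [mem_Min.1 hv]; norm_num

theorem IsJ.inv {J : ℕ} {g : Co0} (h : IsJ J g) {H : Subgroup Co0} (hc : ∀ x ∈ H, x * g = g * x) :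
    Inv H (qf J) := by
  intro x hx v hv a b ha hb
  have h1 := h.qf_eq ha (min_le hv)
  have h2 := h.qf_eq hb (min_le (smul_mem_Min x hv))
  rw [← mul_smul, ← hc x hx, mul_smul, dotInt_co0, ← h1] at h2
  exact_mod_cast h2

/-- the codes of the list are fixed by `H` -/
def FixAll (H : Subgroup Co0) (us : List ℕ) : Prop :=
  ∀ u ∈ us, ∃ z : leechLattice, Code u z ∧ sqNorm (z : GolayPt → ℤ) ≤ 256 ∧ ∀ h ∈ H, h • z = z

theorem FixAll.mono {H K : Subgroup Co0} {us : List ℕ} (h : FixAll H us) (e : K ≤ H) :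
    FixAll K us := fun u hu => let ⟨z, h1, h2, h3⟩ := h u hu; ⟨z, h1, h2, fun g hg => h3 g (e hg)⟩

theorem code_zero : Code OFF 0 :=
  code_of_ev (by rw [ZeroMemClass.coe_zero, (sqNorm_eq_zero_iff 0).2 rfl]; norm_num)
    (by rw [OFF_eq]; exact ev_congr fun _ _ => by simp)

theorem FixAll.pk {H : Subgroup Co0} {us : List ℕ} (h : FixAll H us) (j : ℕ) :
    ∃ z : leechLattice, Code (pick OFF us j) z ∧ sqNorm (z : GolayPt → ℤ) ≤ 256 ∧
      ∀ h ∈ H, h • z = z :=
  pick_all (P := fun u => ∃ z : leechLattice, Code u z ∧ sqNorm (z : GolayPt → ℤ) ≤ 256 ∧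
      ∀ h ∈ H, h • z = z)
    ⟨0, code_zero, by rw [ZeroMemClass.coe_zero, (sqNorm_eq_zero_iff 0).2 rfl]; norm_num,
      fun g _ => smul_zero g⟩ h j

/-- multiplier of the scalar products with the vectors of a list -/
noncomputable def gramR (us : List ℕ) : ℕ := mkR fun j i => dg (pick OFF us j) i

theorem dg_le {a : ℕ} {v : leechLattice} (hv : Code a v) (hn : sqNorm (v : GolayPt → ℤ) ≤ 256)
    {i : ℕ} (hi : i < 24) : dg a i ≤ 32 := by
  have h1 := hv.dg_eq hi
  have h2 := abs_le_of_norm (k := 16) (by norm_num) hn (pt i)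
  omega

theorem FixAll.inv {H : Subgroup Co0} {us : List ℕ} (h : FixAll H us) :
    Inv H (raw KBIG (gramR us)) := by
  intro x hx v hv a b ha hb
  choose z hz using h.pk
  have key : ∀ {c : ℕ} {w : leechLattice}, Code c w → w ∈ H16.Min → ∀ j < 24,
      (dg (raw KBIG (gramR us) c) j : ℤ) =
        32768 + dotInt (z j : GolayPt → ℤ) (w : GolayPt → ℤ) := by
    intro c w hw hm j hj
    unfold gramR
    rw [raw_big (fun j _ i hi => dg_le (hz j).1 (hz j).2.1 hi) hw.1
      (fun i hi => dg_le hw (min_le hm) hi) hj, dotInt_def, sum_pt]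
    refine congrArg _ (Finset.sum_congr rfl fun i hi => ?_)
    rw [(hz j).1.dg_eq (Finset.mem_range.1 hi), hw.dg_eq (Finset.mem_range.1 hi)]
  have hlt : ∀ c, raw KBIG (gramR us) c < 65536 ^ 24 := fun c =>
    lt_trans (Nat.mod_lt _ (show 0 < MD by decide +kernel)) (show MD < 65536 ^ 24 by decide +kernel)
  refine eq_of_dg (hlt b) (hlt a) fun j hj => ?_
  have h1 := key ha hv j hj
  have h2 := key hb (smul_mem_Min x hv) j hj
  rw [dot_of_fix ((hz j).2.2 x hx), ← h1] at h2
  exact_mod_cast h2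

/-- add `n` iterated images of `a` to the list -/
noncomputable def orbL (R n : ℕ) : ℕ → List ℕ → List ℕ :=
  Nat.rec (fun _ us => us) (fun _ ih a us => force (app R a) fun b => ih b (a :: us)) n

theorem FixAll.orbL {H : Subgroup Co0} {R : ℕ} {g : Co0} (hR : IsR R g)
    (hc : ∀ x ∈ H, x * g = g * x) (n : ℕ) : ∀ {a : ℕ} {v : leechLattice} {us : List ℕ},
    Code a v → sqNorm (v : GolayPt → ℤ) ≤ 256 → (∀ x ∈ H, x • v = v) → FixAll H us →
      FixAll H (orbL R n a us) := by
  induction n with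
  | zero => intro a v us _ _ _ h; exact h
  | succ n ih =>
    intro a v us ha hn hv h
    have e : H9.Lch.orbL R (n + 1) a us = H9.Lch.orbL R n (app R a) (a :: us) :=
      force_eq (app R a) fun b => H9.Lch.orbL R n b (a :: us)
    rw [e]
    refine ih (hR.app ha hn) (by rwa [sqNorm_co0])
      (fun x hx => by rw [← mul_smul, hc x hx, mul_smul, hv x hx]) fun u hu => ?_
    rcases List.mem_cons.1 hu with rfl | hu
    · exact ⟨v, ha, hn, hv⟩
    · exact h u hu

/-- certificate: `d e_i` is an integral combination of the vectors of the list -/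
noncomputable def spanOk (C d : ℕ) (us : List ℕ) : Bool :=
  Nat.blt 0 d && allLt 24 fun i => allLt 24 fun k => Nat.beq
    (Nat.add (sumLt 24 fun j => Nat.mul (dg C (Nat.add (Nat.mul 24 i) j)) (dg (pick OFF us j) k))
      12582912)
    (Nat.add (sumLt 24 fun j => Nat.add (Nat.mul 16 (dg C (Nat.add (Nat.mul 24 i) j)))
      (Nat.mul 32768 (dg (pick OFF us j) k))) (cond (Nat.beq i k) (Nat.mul 8 d) 0))

theorem FixAll.eq_bot {H : Subgroup Co0} {us : List ℕ} (h : FixAll H us) {C d : ℕ}
    (c : spanOk C d us = true) : H = ⊥ := by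
  choose z hz using h.pk
  unfold spanOk at c
  rw [Bool.and_eq_true, Nat.blt_eq, allLt_iff] at c
  refine eq_bot_iff.2 fun x hx => co0_ext (forall_pt.2 fun i hi => ?_)
  have e : (d : ℤ) • e8 (pt i) = ∑ j ∈ range 24, ((dg C (24 * i + j) : ℤ) - 32768) • z j := by
    refine Subtype.ext (funext (forall_pt.2 fun k hk => ?_))
    have h1 := Nat.eq_of_beq_eq_true (allLt_iff.1 (c.2 i hi) k hk)
    simp only [sumLt_eq, Nat.add_eq, Nat.mul_eq] at h1
    have h2 := congrArg (Nat.cast : ℕ → ℤ) h1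
    push_cast at h2
    rw [AddSubgroupClass.coe_zsmul, AddSubgroup.val_finsetSum, Finset.sum_apply, coe_e8]
    have h3 : ∑ j ∈ range 24, ((((dg C (24 * i + j) : ℤ) - 32768) • z j : leechLattice) :
        GolayPt → ℤ) (pt k) = ∑ j ∈ range 24, ((dg C (24 * i + j) : ℤ) * dg (pick OFF us j) k -
          (16 * dg C (24 * i + j) + 32768 * dg (pick OFF us j) k) + 524288) :=
      Finset.sum_congr rfl fun j _ => by
        rw [AddSubgroupClass.coe_zsmul, Pi.smul_apply, ← (hz j).1.dg_eq hk, smul_eq_mul]; ring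
    rw [h3, Finset.sum_add_distrib, Finset.sum_sub_distrib, Finset.sum_const, Finset.card_range,
      Pi.smul_apply, smul_eq_mul, nsmul_eq_mul]
    by_cases hik : i = k
    · subst hik
      rw [Nat.beq_refl, cond_true] at h2
      rw [Pi.single_eq_same]
      push_cast at h2 ⊢
      linarith
    · rw [show Nat.beq i k = false from Bool.eq_false_iff.2 fun h => hik (Nat.eq_of_beq_eq_true h),
        cond_false] at h2
      rw [Pi.single_eq_of_ne fun e => hik (pt_inj hk hi e).symm]
      push_cast at h2 ⊢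
      linarith
  have e2 : (d : ℤ) • (x • e8 (pt i)) = (d : ℤ) • e8 (pt i) := by
    rw [← co0_smul_zsmul, e, Finset.smul_sum]
    exact Finset.sum_congr rfl fun j _ => by rw [co0_smul_zsmul, (hz j).2.2 x hx]
  rw [one_smul]
  refine Subtype.ext (funext fun p => ?_)
  have e3 := congrFun (congrArg Subtype.val e2) p
  rw [AddSubgroupClass.coe_zsmul, AddSubgroupClass.coe_zsmul, Pi.smul_apply, Pi.smul_apply,
    smul_eq_mul, smul_eq_mul] at e3
  exact mul_left_cancel₀ (by have := c.1; omega) e3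

theorem card_le_mul (H : Subgroup Co0) (v : leechLattice) :
    Nat.card H = (MulAction.orbit H v).ncard * Nat.card ↥(H ⊓ Stab v) := by
  have e2 : (H ⊓ Stab v).subgroupOf H = MulAction.stabilizer H v := by
    ext g; simp [Subgroup.mem_subgroupOf, MulAction.mem_stabilizer_iff, Subgroup.smul_def]
  rw [← (MulAction.stabilizer H v).index_mul_card, MulAction.index_stabilizer, ← e2,
    Nat.card_congr (Subgroup.subgroupOfEquivOfLe inf_le_left).toEquiv]

theorem ncard_le_countP {L : Multiset ℕ} (hL : ∀ v ∈ H16.Min, ∀ a, Code a v → a ∈ L)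
    {S : Set leechLattice} (hS : S ⊆ H16.Min) {f : ℕ → Bool}
    (hf : ∀ v ∈ S, ∀ a, Code a v → f a = true) : S.ncard ≤ L.countP (f · = true) := by
  classical
  rw [Multiset.countP_eq_card_filter]
  refine le_trans ?_ (Multiset.toFinset_card_le _)
  rw [← Set.ncard_coe_finset]
  refine Set.ncard_le_ncard_of_injOn cod (fun v hv => ?_) (fun v hv w hw e => ?_) (Finset.finite_toSet _)
  · have h := code_cod (min_le (hS hv))
    simpa using ⟨hL v (hS hv) _ h, hf v hv _ h⟩
  · exact (code_cod (min_le (hS hv))).eq_vec (e ▸ code_cod (min_le (hS hw)))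

/-- a level: base vector, number of images, Gram multiplier, filter mask, targets -/
structure Lv where
  a : ℕ
  n : ℕ
  R : ℕ
  M : ℕ
  T : ℕ
  q : List ℕ

/-- the quadratic tests -/
noncomputable def qok (Js : List ℕ) : List ℕ → ℕ → Bool :=
  List.rec (fun _ _ => true) (fun J _ ih q a => List.rec false
    (fun t q' _ => H54.band (Nat.beq (qf J a) t) (ih q' a)) q) Js

theorem inv_qok {H : Subgroup Co0} {Js : List ℕ} (h : ∀ J ∈ Js, Inv H (qf J)) (q : List ℕ) :
    Inv H (qok Js q) := by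
  intro x hx v hv a b ha hb
  induction Js generalizing q with
  | nil => rfl
  | cons J Js ih =>
    cases q with
    | nil => rfl
    | cons t q =>
      have e : ∀ c, qok (J :: Js) (t :: q) c = H54.band (Nat.beq (qf J c) t) (qok Js q c) :=
        fun _ => rfl
      rw [e, e, h J List.mem_cons_self x hx v hv a b ha hb,
        ih (fun J hJ => h J (List.mem_cons_of_mem _ hJ))]

/-- the filter of a level -/
def flt (M G : ℕ) : Bool := bit M (Nat.mod G 4093)

/-- one level of the weight -/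
noncomputable def wStep (M T : ℕ) (t : Bool) (r G : ℕ) : ℕ :=
  H54.sel (flt M G) (Nat.add (H54.sel (Nat.beq G T) (H54.sel t 1 0) 0) (Nat.shiftLeft r 20)) 0

theorem shift_eq (r : ℕ) : Nat.shiftLeft r 20 = r * 1048576 :=
  (Nat.shiftLeft_eq r 20).trans (congrArg (r * ·) (by norm_num))

theorem add_shift' (b : Bool) (r B : ℕ) : Nat.add (H54.sel b 1 0) (r * B) =
    cond b 1 0 + cond true r 0 * B := by
  cases b <;> simp

theorem add_shift (b : Bool) (r : ℕ) : Nat.add (H54.sel b 1 0) (Nat.shiftLeft r 20) =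
    cond b 1 0 + cond true r 0 * 1048576 := by
  rw [shift_eq]
  exact add_shift' b r _

theorem wStep_aux' (p f e t : Bool) (r B : ℕ) :
    cond p (H54.sel f (Nat.add (H54.sel e (H54.sel t 1 0) 0) (r * B)) 0) 0 =
      cond (p && (f && (e && t))) 1 0 + cond (p && f) r 0 * B := by
  cases p <;> cases f <;> cases e <;> cases t <;> simp

theorem wStep_aux (p f e t : Bool) (r : ℕ) :
    cond p (H54.sel f (Nat.add (H54.sel e (H54.sel t 1 0) 0) (Nat.shiftLeft r 20)) 0) 0 =
      cond (p && (f && (e && t))) 1 0 + cond (p && f) r 0 * 1048576 := by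
  rw [shift_eq]
  exact wStep_aux' p f e t r _

theorem wStep_eq (p : Bool) (M T : ℕ) (t : Bool) (r G : ℕ) : cond p (wStep M T t r G) 0 =
    cond (p && (flt M G && (Nat.beq G T && t))) 1 0 + cond (p && flt M G) r 0 * 1048576 :=
  wStep_aux p (flt M G) (Nat.beq G T) t r

/-- the weight of the levels -/
noncomputable def wL (Js : List ℕ) (ls : List Lv) (a : ℕ) : ℕ :=
  List.rec 0 (fun l _ ih => wStep l.M l.T (qok Js l.q a) ih (raw KBIG l.R a)) ls

/-- the weight with the first level -/
noncomputable def wTop (Js q : List ℕ) (ls : List Lv) (a : ℕ) : ℕ :=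
  Nat.add (H54.sel (qok Js q a) 1 0) (Nat.shiftLeft (wL Js ls a) 20)

/-- `a` is the code of a minimal vector -/
def isMin (a : ℕ) : Bool := isV a && decide (dotC a a = 32)

theorem isMin_spec {a : ℕ} (h : isMin a = true) : Code a (lv a) ∧ lv a ∈ H16.Min := by
  unfold isMin at h
  rw [Bool.and_eq_true, decide_eq_true_iff] at h
  exact ⟨code_lv h.1, mem_Min.2 ((code_lv h.1).norm.trans h.2)⟩

/-- the consistency of the levels -/
noncomputable def chainOk (R : ℕ) (Js : List ℕ) (C d : ℕ) (ls : List Lv) : List ℕ → Bool :=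
  List.rec (fun us => spanOk C d us) (fun l ls ih us => isMin l.a && (Nat.beq l.R (gramR us) &&
    (Nat.beq (raw KBIG l.R l.a) l.T && (flt l.M l.T && (qok Js l.q l.a &&
    ((ls.all fun k => flt l.M (raw KBIG l.R k.a)) && ih (orbL R l.n l.a us))))))) ls

/-- product of the first digits -/
def prodD (n : ℕ) : ℕ → ℕ :=
  Nat.rec (fun _ => 1) (fun _ ih T => Nat.mul (Nat.mod T 1048576) (ih (Nat.div T 1048576))) n

theorem sum_step (L : Multiset ℕ) (f : ℕ → Bool) (W : ℕ → ℕ) (B : ℕ) :
    (L.map fun a => cond (f a) 1 0 + W a * B).sum =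
      L.countP (f · = true) + (L.map W).sum * B := by
  induction L using Multiset.induction_on with
  | empty => simp
  | cons a L ih =>
    rw [Multiset.map_cons, Multiset.sum_cons, ih, Multiset.map_cons, Multiset.sum_cons,
      Multiset.countP_cons]
    cases f a <;> simp <;> ring

theorem step_le {L : Multiset ℕ} (hL : ∀ v ∈ H16.Min, ∀ a, Code a v → a ∈ L)
    (hc : L.card < 1048576) {H : Subgroup Co0} {f : ℕ → Bool} (hf : Inv H f) {a : ℕ}
    (ha : isMin a = true) (hfa : f a = true) {W : ℕ → ℕ} {n : ℕ}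
    (ih : Nat.card ↥(H ⊓ Stab (lv a)) ≤ prodD n (L.map W).sum) :
    Nat.card H ≤ prodD (n + 1) (L.map fun a => cond (f a) 1 0 + W a * 1048576).sum := by
  obtain ⟨h1, h2⟩ := isMin_spec ha
  have h3 : (MulAction.orbit H (lv a)).ncard ≤ L.countP (f · = true) := by
    refine ncard_le_countP hL ?_ ?_
    · rintro _ ⟨x, rfl⟩
      exact smul_mem_Min _ h2
    · rintro _ ⟨x, rfl⟩ b hb
      rw [hf x x.2 _ h2 a b h1 hb, hfa]
  have h4 := Multiset.countP_le_card (f · = true) L
  rw [sum_step, card_le_mul H (lv a)]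
  show _ ≤ (_ % 1048576) * prodD n (_ / 1048576)
  rw [Nat.add_mul_mod_self_right, Nat.mod_eq_of_lt (by omega), Nat.add_mul_div_right _ _ (by norm_num),
    Nat.div_eq_of_lt (by omega), zero_add]
  exact Nat.mul_le_mul h3 ih

theorem chain_le {L : Multiset ℕ} (hL : ∀ v ∈ H16.Min, ∀ a, Code a v → a ∈ L)
    (hc : L.card < 1048576) {R : ℕ} {g : Co0} (hR : IsR R g) {Js : List ℕ} {C d : ℕ} :
    ∀ (ls : List Lv) {H : Subgroup Co0} {us : List ℕ} {pre : ℕ → Bool},
    (∀ x ∈ H, x * g = g * x) → (∀ J ∈ Js, Inv H (qf J)) → FixAll H us → Inv H pre →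
    (∀ l ∈ ls, pre l.a = true) → chainOk R Js C d ls us = true →
    Nat.card H ≤ prodD ls.length (L.map fun a => cond (pre a) (wL Js ls a) 0).sum := by
  intro ls
  induction ls with
  | nil =>
    intro H us pre _ _ hu _ _ c
    rw [hu.eq_bot c, Subgroup.card_bot]
    exact le_rfl
  | cons l ls ih =>
    intro H us pre hg hJ hu hp hl c
    have c' : (isMin l.a && (Nat.beq l.R (gramR us) && (Nat.beq (raw KBIG l.R l.a) l.T &&
      (flt l.M l.T && (qok Js l.q l.a && ((ls.all fun k => flt l.M (raw KBIG l.R k.a)) &&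
        chainOk R Js C d ls (orbL R l.n l.a us))))))) = true := c
    simp only [Bool.and_eq_true, Nat.beq_eq, List.all_eq_true] at c'
    obtain ⟨c1, c2, c3, c4, c5, c6, c7⟩ := c'
    have hG : Inv H (raw KBIG l.R) := c2 ▸ hu.inv
    have hq := inv_qok hJ l.q
    obtain ⟨h1, h2⟩ := isMin_spec c1
    have e : (fun a => cond (pre a) (wL Js (l :: ls) a) 0) = fun a =>
        cond (pre a && (flt l.M (raw KBIG l.R a) && (Nat.beq (raw KBIG l.R a) l.T && qok Js l.q a))) 1 0 +
          cond (pre a && flt l.M (raw KBIG l.R a)) (wL Js ls a) 0 * 1048576 := by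
      funext a
      exact wStep_eq (pre a) l.M l.T (qok Js l.q a) (wL Js ls a) (raw KBIG l.R a)
    rw [e]
    refine step_le hL hc (fun x hx v hv a b ha hb => ?_) c1 ?_ (ih (us := orbL R l.n l.a us)
      (fun x hx => hg x hx.1) (fun J h => (hJ J h).mono inf_le_left)
      (FixAll.orbL (H := H ⊓ Stab (lv l.a)) hR (fun x hx => hg x hx.1) l.n h1 (min_le h2) (fun x hx => hx.2)
        (hu.mono inf_le_left)) (fun x hx v hv a b ha hb => ?_) (fun k hk => ?_) c7)
    · rw [hp x hx v hv a b ha hb, hG x hx v hv a b ha hb, hq x hx v hv a b ha hb]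
    · rw [hl l List.mem_cons_self, c3, c4, c5, Nat.beq_refl]; rfl
    · rw [hp x hx.1 v hv a b ha hb, hG x hx.1 v hv a b ha hb]
    · rw [hl k (List.mem_cons_of_mem _ hk), c6 k hk]; rfl

/-- the order bound -/
theorem card_le_of_chain {H : Subgroup Co0} {R : ℕ} {g : Co0} (hR : IsR R g)
    (hg : ∀ x ∈ H, x * g = g * x) {Js : List ℕ} (hJ : ∀ J ∈ Js, Inv H (qf J)) {a n C d : ℕ}
    {q : List ℕ} {ls : List Lv}
    (c : (isMin a && (qok Js q a && chainOk R Js C d ls (orbL R n a []))) = true) {T : ℕ}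
    (hT : tot (wTop Js q ls) = T) : Nat.card H ≤ prodD (ls.length + 1) T := by
  obtain ⟨L, h1, h2, h3⟩ := exists_enum
  simp only [Bool.and_eq_true] at c
  obtain ⟨c1, c2, c3⟩ := c
  obtain ⟨h4, h5⟩ := isMin_spec c1
  have e : wTop Js q ls = fun a => cond (qok Js q a) 1 0 +
      cond ((fun _ => true) a) (wL Js ls a) 0 * 1048576 := funext fun a => add_shift _ _
  rw [← hT, h1, e]
  exact step_le h3 (by omega) (inv_qok hJ q) c1 c2 (chain_le h3 (by omega) hR ls
    (fun x hx => hg x hx.1) (fun J h => (hJ J h).mono inf_le_left)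
    (FixAll.orbL (H := H ⊓ Stab (lv a)) hR (fun x hx => hg x hx.1) n h4 (min_le h5) (fun x hx => hx.2)
      fun _ h => absurd h List.not_mem_nil) (fun _ _ _ _ _ _ _ _ => rfl) (fun _ _ => rfl) c3)

theorem eqns_Cent : True := by
  have := @KD.eq_1
  have := @dotF.eq_1
  have := @matJ.eq_1
  have := @IsJ.eq_1
  have := @qf.eq_1
  have := @Inv.eq_1
  have := @FixAll.eq_1
  have := @gramR.eq_1
  have := @orbL.eq_1
  have := @spanOk.eq_1
  have := @qok.eq_1
  have := @flt.eq_1
  have := @wStep.eq_1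
  have := @wL.eq_1
  have := @wTop.eq_1
  have := @isMin.eq_1
  have := @chainOk.eq_1
  have := @prodD.eq_1
  exact True.intro

end H9.Lch
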