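import Cfsg.Agent.Base
import Cfsg.Agent.Lib.Leech.Word

/-! A kernel loop over the 196560 minimal vectors of the lattice (salted codes). -/

set_option autoImplicit false
set_option exponentiation.threshold 700
set_option maxRecDepth 100000
set_option Elab.async false

namespace H9.Lch

open Cfsg Finset H15 H16

/-- `Φ` is the sum over a multiset of numbers containing `P` -/
def Cov (Φ : (ℕ → ℕ) → ℕ) (P : Set ℕ) : Prop :=
  ∃ L : Multiset ℕ, (∀ F, Φ F = (L.map F).sum) ∧ ∀ a ∈ P, a ∈ L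

theorem Cov.mono {Φ Ψ : (ℕ → ℕ) → ℕ} {P Q : Set ℕ} (h : Cov Φ P) (e : ∀ F, Ψ F = Φ F)
    (hQ : ∀ a ∈ Q, a ∈ P) : Cov Ψ Q :=
  let ⟨L, h1, h2⟩ := h
  ⟨L, fun F => (e F).trans (h1 F), fun a ha => h2 a (hQ a ha)⟩

theorem cov_zero : Cov (fun _ => 0) ∅ := ⟨0, fun _ => by simp, fun _ h => h.elim⟩

theorem cov_one (a : ℕ) : Cov (fun F => F a) {a} :=
  ⟨{a}, fun _ => by simp, fun _ h => Multiset.mem_singleton.2 h⟩

theorem Cov.add {Φ Ψ : (ℕ → ℕ) → ℕ} {P Q : Set ℕ} (h : Cov Φ P) (h' : Cov Ψ Q) :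
    Cov (fun F => Φ F + Ψ F) (P ∪ Q) := by
  obtain ⟨L, h1, h2⟩ := h
  obtain ⟨M, h3, h4⟩ := h'
  refine ⟨L + M, fun F => by rw [Multiset.map_add, Multiset.sum_add, ← h1, ← h3], fun a ha => ?_⟩
  rw [Multiset.mem_add]
  exact ha.imp (h2 a) (h4 a)

theorem cov_sum {Φ : ℕ → (ℕ → ℕ) → ℕ} {P : ℕ → Set ℕ} (n : ℕ) (h : ∀ i < n, Cov (Φ i) (P i)) :
    Cov (fun F => sumLt n fun i => Φ i F) {a | ∃ i < n, a ∈ P i} := by
  induction n with
  | zero => exact cov_zero.mono (fun _ => rfl) fun a ⟨_, h, _⟩ => absurd h (Nat.not_lt_zero _)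
  | succ n ih =>
    refine ((h n (Nat.lt_succ_self n)).add (ih fun i hi => h i (Nat.lt_succ_of_lt hi))).mono
      (fun _ => rfl) fun a ⟨i, hi, ha⟩ => ?_
    rcases Nat.lt_succ_iff_lt_or_eq.1 hi with hi | rfl
    · exact Or.inr ⟨i, hi, ha⟩
    · exact Or.inl ha

/-- the salted unit of coordinate `i` -/
def U (i : ℕ) : ℕ := Nat.add (Nat.shiftLeft 1 (Nat.add 64 (Nat.mul 16 i))) (Nat.pow 5 i)

theorem U_eq (i : ℕ) : (U i : ℤ) = 2 ^ 64 * 65536 ^ i + 5 ^ i := by
  have e : Nat.shiftLeft 1 (Nat.add 64 (Nat.mul 16 i)) = 1 * 2 ^ (64 + 16 * i) := Nat.shiftLeft_eq _ _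
  unfold U
  rw [e, pow_add, pow_mul]
  show ((1 * (2 ^ 64 * (2 ^ 16) ^ i) + 5 ^ i : ℕ) : ℤ) = _
  push_cast
  ring

theorem sal_code {x : ℕ} {v : leechLattice} (hn : sqNorm (v : GolayPt → ℤ) ≤ 256)
    (h : (x : ℤ) = ∑ i ∈ range 24, ((v : GolayPt → ℤ) (pt i) + 16) * U i) :
    Code (Nat.shiftRight x 64) v := by
  refine code_of_ev hn ?_
  have e : Nat.shiftRight x 64 = x / 2 ^ 64 := Nat.shiftRight_eq_div_pow _ _
  have hb := fun i => abs_le_of_norm (k := 16) (by norm_num) hn (pt i)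
  have h1 : (x : ℤ) = 2 ^ 64 * ev 24 (fun i => (v : GolayPt → ℤ) (pt i) + 16) +
      ∑ i ∈ range 24, ((v : GolayPt → ℤ) (pt i) + 16) * 5 ^ i := by
    rw [h, ev, Finset.mul_sum, ← Finset.sum_add_distrib]
    exact Finset.sum_congr rfl fun i _ => by rw [U_eq]; ring
  have h2 : 0 ≤ ∑ i ∈ range 24, ((v : GolayPt → ℤ) (pt i) + 16) * 5 ^ i :=
    Finset.sum_nonneg fun i _ => mul_nonneg (by have := hb i; omega) (by positivity)
  have h3 : ∑ i ∈ range 24, ((v : GolayPt → ℤ) (pt i) + 16) * 5 ^ i ≤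
      ∑ i ∈ range 24, (32 : ℤ) * 5 ^ i :=
    Finset.sum_le_sum fun i _ => mul_le_mul_of_nonneg_right (by have := hb i; omega) (by positivity)
  have h4 : ∑ i ∈ range 24, (32 : ℤ) * 5 ^ i < 2 ^ 64 := by decide +kernel
  rw [e]
  generalize ev 24 (fun i => (v : GolayPt → ℤ) (pt i) + 16) = A at *
  generalize ∑ i ∈ range 24, ((v : GolayPt → ℤ) (pt i) + 16) * 5 ^ i = S at *
  generalize ∑ i ∈ range 24, (32 : ℤ) * 5 ^ i = S' at *
  omega

theorem sal_code' {x t : ℕ} {v : leechLattice} (hn : sqNorm (v : GolayPt → ℤ) ≤ 256)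
    (h : (x : ℤ) - t = ∑ i ∈ range 24, ((v : GolayPt → ℤ) (pt i) + 16) * U i) :
    Code (Nat.shiftRight (Nat.sub x t) 64) v := by
  refine sal_code hn ?_
  have h2 : 0 ≤ ∑ i ∈ range 24, ((v : GolayPt → ℤ) (pt i) + 16) * U i :=
    Finset.sum_nonneg fun i _ => mul_nonneg
      (by have := abs_le_of_norm (k := 16) (by norm_num) hn (pt i); omega) (Int.natCast_nonneg _)
  rw [← h, Nat.sub_eq]
  omega

/-- call `F` on the code of the salted number `x` -/
def call (F : ℕ → ℕ) (x : ℕ) : ℕ := force x fun y => F (Nat.shiftRight y 64)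

theorem cov_call (x : ℕ) : Cov (fun F => call F x) {Nat.shiftRight x 64} :=
  (cov_one _).mono (fun _ => force_eq _ _) fun _ h => h

/-- the salted number with digits `p` off the mask and `q` on the mask -/
def baseS (p q m : ℕ) : ℕ := sumLt 24 fun i => Nat.mul (Bool.rec p q (bit m i)) (U i)

theorem baseS_eq (p q m : ℕ) : (baseS p q m : ℤ) =
    ∑ i ∈ range 24, (if pt i ∈ ofMask m then (q : ℤ) else p) * U i := by
  unfold baseS
  rw [sumLt_eq, Nat.cast_sum]
  refine Finset.sum_congr rfl fun i hi => ?_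
  simp only [pt_mem_ofMask (Finset.mem_range.1 hi), bit_eq, Nat.mul_eq, Nat.cast_mul]
  cases m.testBit i <;> simp

theorem sum_single {j : ℕ} (hj : j < 24) (c : ℤ) :
    ∑ i ∈ range 24, (if pt i = pt j then c else 0) * (U i : ℤ) = c * U j := by
  rw [Finset.sum_eq_single j]
  · simp
  · intro i hi hne
    rw [if_neg fun e => hne (pt_inj (Finset.mem_range.1 hi) hj e), zero_mul]
  · intro h; exact absurd (Finset.mem_range.2 hj) h

/-- the vectors with odd coordinates attached to a code word -/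
def oddS (F : ℕ → ℕ) (m : ℕ) : ℕ := force (baseS 17 15 m) fun b => sumLt 24 fun j =>
  call F (Bool.rec (Nat.sub b (Nat.mul 4 (U j))) (Nat.add b (Nat.mul 4 (U j))) (bit m j))

theorem cov_odd (m : ℕ) : Cov (fun F => oddS F m) {a | ∃ v : leechLattice, Code a v ∧
    sqNorm (v : GolayPt → ℤ) = 32 ∧ ∃ j, (v : GolayPt → ℤ) = sgn (ofMask m) (odd3 j)} := by
  refine (cov_sum 24 fun j _ => cov_call (Bool.rec (Nat.sub (baseS 17 15 m) (Nat.mul 4 (U j)))
    (Nat.add (baseS 17 15 m) (Nat.mul 4 (U j))) (bit m j))).mono (fun _ => force_eq _ _) ?_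
  rintro a ⟨v, hv, hn, j, e⟩
  have hj := idx_lt j
  refine ⟨idx j, hj, hv.eq_code ?_⟩
  have hm : j ∈ ofMask m ↔ m.testBit (idx j) = true := mem_ofMask
  rw [bit_eq]
  cases hb : m.testBit (idx j)
  · refine sal_code' (by omega) ?_
    rw [baseS_eq, Nat.mul_eq, Nat.cast_mul, ← sum_single hj, ← Finset.sum_sub_distrib]
    refine Finset.sum_congr rfl fun i _ => ?_
    rw [e, odd_apply, pt_idx, ← sub_mul]
    congr 1
    by_cases h : pt i = j
    · rw [hb] at hm; simp [h, hm]
    · simp only [h, if_false]; split_ifs <;> simp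
  · refine sal_code (by omega) ?_
    rw [Nat.add_eq, Nat.cast_add, baseS_eq, Nat.mul_eq, Nat.cast_mul, ← sum_single hj,
      ← Finset.sum_add_distrib]
    refine Finset.sum_congr rfl fun i _ => ?_
    rw [e, odd_apply, pt_idx, ← add_mul]
    congr 1
    by_cases h : pt i = j
    · rw [hb] at hm; simp [h, hm]
    · simp only [h, if_false]; split_ifs <;> simp

/-- all sign choices -/
noncomputable def sg (F : ℕ → ℕ) (s : ℕ) (l : List ℕ) : ℕ → Bool → ℕ :=
  List.rec (fun acc par => call F (Bool.rec acc (Nat.add acc s) par))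
    (fun t _ ih acc par => Nat.add (ih acc par)
      (force (Nat.add acc t) fun a => Bool.rec (ih a true) (ih a false) par)) l

theorem cov_sg (s : ℕ) (l : List ℕ) : ∀ (acc : ℕ) (par : Bool), Cov (fun F => sg F s l acc par)
    {a | ∃ l' : List ℕ, l'.Sublist l ∧ ∃ b : Bool, (l'.length + b.toNat + par.toNat) % 2 = 0 ∧
      a = Nat.shiftRight (acc + l'.sum + b.toNat * s) 64} := by
  induction l with
  | nil =>
    intro acc par
    refine (cov_call (Bool.rec acc (Nat.add acc s) par)).mono (fun _ => rfl) ?_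
    rintro a ⟨l', h, b, hb, rfl⟩
    obtain rfl := List.sublist_nil.1 h
    cases b <;> cases par <;> simp at hb ⊢
  | cons t l ih =>
    intro acc par
    refine ((ih acc par).add (ih (acc + t) (!par))).mono (fun F => ?_) ?_
    · show Nat.add _ (force _ _) = _
      rw [force_eq]
      cases par <;> rfl
    · rintro a ⟨l', h, b, hb, rfl⟩
      rcases List.sublist_cons_iff.1 h with h' | ⟨r, rfl, h'⟩
      · exact Or.inl ⟨l', h', b, hb, rfl⟩
      · refine Or.inr ⟨r, h', b, ?_, by rw [List.sum_cons, ← add_assoc acc]⟩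
        rw [List.length_cons] at hb
        cases par <;> simp at hb ⊢ <;> omega

/-- the list of the steps of a mask -/
noncomputable def steps (m : ℕ) (k : List ℕ → ℕ) (n : ℕ) : List ℕ → ℕ :=
  Nat.rec k (fun i ih l => cond (bit m i) (force (Nat.mul 4 (U i)) fun s => ih (s :: l)) (ih l)) n

theorem steps_eq (m : ℕ) (k : List ℕ → ℕ) (n : ℕ) : ∀ l, steps m k n l =
    k ((((List.range n).filter fun i => m.testBit i).map fun i => 4 * U i) ++ l) := by
  induction n with
  | zero => intro l; rfl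
  | succ n ih =>
    intro l
    show cond (bit m n) (force _ fun s => steps m k n (s :: l)) (steps m k n l) = _
    rw [force_eq, bit_eq, List.range_succ, List.filter_append, List.map_append, ih, ih]
    cases h : m.testBit n <;> simp [h]

/-- the vectors supported on an octad -/
noncomputable def octS (F : ℕ → ℕ) (m : ℕ) : ℕ :=
  cond (Nat.beq (wt m) 8) (force (baseS 16 14 m) fun b =>
    steps m (fun l => List.rec 0 (fun s l _ => sg F s l b false) l) 24 []) 0

theorem length_filter (m : ℕ) :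
    ((List.range 24).filter fun i => m.testBit i).length = (ofMask m).card := by
  rw [card_ofMask_eq_pc, pc_eq, ← List.toFinset_card_of_nodup (List.nodup_range.filter _),
    List.toFinset_filter, List.toFinset_range]

theorem exists_sub {m : ℕ} {t : Finset GolayPt} (ht : t ⊆ ofMask m) : ∃ r : List ℕ,
    r.Sublist (((List.range 24).filter fun i => m.testBit i).map fun i => 4 * U i) ∧
    r.length = t.card ∧ (r.sum : ℤ) = ∑ i ∈ range 24, (if pt i ∈ t then (4 : ℤ) else 0) * U i := by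
  obtain ⟨n, -, rfl⟩ := exists_mask t
  refine ⟨((List.range 24).filter fun i => n.testBit i).map fun i => 4 * U i,
    List.Sublist.map _ ?_, by rw [List.length_map, length_filter], ?_⟩
  · have : ((List.range 24).filter fun i => n.testBit i) =
        ((List.range 24).filter fun i => m.testBit i).filter fun i => n.testBit i := by
      rw [List.filter_filter]
      refine List.filter_congr fun i hi => ?_
      have hi' := List.mem_range.1 hi
      have h1 := @ht (pt i)
      rw [pt_mem_ofMask hi', pt_mem_ofMask hi'] at h1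
      cases h4 : n.testBit i
      · rfl
      · rw [h1 h4]; rfl
    rw [this]
    exact List.filter_sublist
  · rw [← List.sum_toFinset _ (List.nodup_range.filter _), List.toFinset_filter, List.toFinset_range,
      Finset.sum_filter, Nat.cast_sum]
    refine Finset.sum_congr rfl fun i hi => ?_
    simp only [pt_mem_ofMask (Finset.mem_range.1 hi)]
    split_ifs <;> simp

theorem octS_eq {m s : ℕ} {l : List ℕ} (h8 : wt m = 8) (F : ℕ → ℕ)
    (e : (((List.range 24).filter fun i => m.testBit i).map fun i => 4 * U i) = s :: l) :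
    octS F m = sg F s l (baseS 16 14 m) false := by
  have h : Nat.beq (wt m) 8 = true := by rw [h8]; rfl
  unfold octS
  rw [h, cond_true, force_eq, steps_eq, List.append_nil, e]

theorem cov_oct (m : ℕ) : Cov (fun F => octS F m) {a | ∃ v : leechLattice, Code a v ∧
    sqNorm (v : GolayPt → ℤ) = 32 ∧ (ofMask m).card = 8 ∧ ∃ s ⊆ ofMask m, 2 ∣ s.card ∧
      (v : GolayPt → ℤ) = sgn s (rep 0 (ofMask m))} := by
  by_cases h8 : wt m = 8
  swap
  · refine cov_zero.mono (fun F => ?_) fun a ⟨_, _, _, h, _⟩ => h8 (card_ofMask m ▸ h)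
    unfold octS
    rw [show Nat.beq (wt m) 8 = false from Bool.eq_false_iff.2 fun h => h8 (Nat.eq_of_beq_eq_true h),
      cond_false]
  have hl := length_filter m
  rw [card_ofMask, h8] at hl
  obtain ⟨s, l, e⟩ : ∃ s l, (((List.range 24).filter fun i => m.testBit i).map fun i => 4 * U i) =
      s :: l := List.exists_cons_of_length_pos (by rw [List.length_map, hl]; norm_num)
  refine (cov_sg s l (baseS 16 14 m) false).mono (fun F => octS_eq h8 F e) ?_
  rintro a ⟨v, hv, hn, hc, t, ht, h2, ev⟩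
  obtain ⟨r, hsub, hlen, e1⟩ := exists_sub (Finset.sdiff_subset (s := ofMask m) (t := t))
  rw [e] at hsub
  rw [Finset.card_sdiff_of_subset ht, hc] at hlen
  have hle := Finset.card_le_card ht
  have hcode : Code (Nat.shiftRight (baseS 16 14 m + r.sum) 64) v := by
    refine sal_code (by omega) ?_
    rw [Nat.cast_add, baseS_eq, e1, ← Finset.sum_add_distrib]
    refine Finset.sum_congr rfl fun i _ => ?_
    rw [ev, oct_apply, ← add_mul]
    congr 1
    have := @ht (pt i)
    simp only [Finset.mem_sdiff]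
    by_cases h1 : pt i ∈ t
    · simp [h1, this h1]
    · by_cases h2 : pt i ∈ ofMask m <;> simp only [h1, h2] <;> simp
  clear e1 e hl
  generalize baseS 16 14 m = b at *
  rcases List.sublist_cons_iff.1 hsub with h | ⟨r', rfl, h⟩
  · refine ⟨_, h, false, ?_, hv.eq_code ?_⟩
    · simp only [Bool.toNat_false]; omega
    · rwa [Bool.toNat_false, zero_mul, add_zero]
  · refine ⟨r', h, true, ?_, hv.eq_code ?_⟩
    · rw [List.length_cons] at hlen
      simp only [Bool.toNat_false, Bool.toNat_true]; omega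
    · rwa [Bool.toNat_true, one_mul, add_assoc, add_comm r'.sum, ← List.sum_cons]

/-- the vectors attached to the code word number `u` -/
noncomputable def per (F : ℕ → ℕ) (u : ℕ) : ℕ := force (cw u) fun m => Nat.add (oddS F m) (octS F m)

/-- piece `k < 16` of the loop -/
noncomputable def pcS (F : ℕ → ℕ) (k : ℕ) : ℕ :=
  sumLt 256 fun j => per F (Nat.add (Nat.mul 256 k) j)

/-- the vectors with two coordinates `±4` -/
def fourS (F : ℕ → ℕ) : ℕ := force (baseS 16 16 0) fun b => sumLt 24 fun i => sumLt i fun j =>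
  Nat.add (Nat.add (call F (Nat.add (Nat.add b (Nat.mul 4 (U i))) (Nat.mul 4 (U j))))
      (call F (Nat.sub (Nat.add b (Nat.mul 4 (U i))) (Nat.mul 4 (U j)))))
    (Nat.add (call F (Nat.sub (Nat.add b (Nat.mul 4 (U j))) (Nat.mul 4 (U i))))
      (call F (Nat.sub b (Nat.add (Nat.mul 4 (U i)) (Nat.mul 4 (U j))))))

theorem sum_v44 {i j : ℕ} (hi : i < 24) (hj : j < 24) (s t : ℤ) :
    ∑ k ∈ range 24, (v44 (pt i) (pt j) s t (pt k) + 16) * (U k : ℤ) =
      baseS 16 16 0 + 4 * s * U i + 4 * t * U j := by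
  rw [baseS_eq, ← sum_single hi, ← sum_single hj, ← Finset.sum_add_distrib, ← Finset.sum_add_distrib]
  refine Finset.sum_congr rfl fun k _ => ?_
  rw [v44_apply, ite_self]
  push_cast
  ring

theorem cov_four : Cov fourS {a | ∃ v : leechLattice, Code a v ∧ sqNorm (v : GolayPt → ℤ) = 32 ∧
    ∃ i j, i ≠ j ∧ ∃ s t : ℤ, (s = 1 ∨ s = -1) ∧ (t = 1 ∨ t = -1) ∧
      (v : GolayPt → ℤ) = v44 i j s t} := by
  refine (cov_sum 24 fun i _ => cov_sum i fun j _ => ((cov_call _).add (cov_call _)).add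
    ((cov_call _).add (cov_call _))).mono (fun _ => force_eq _ _) ?_
  rintro a ⟨v, hv, hn, i, j, hij, s, t, hs, ht, e⟩
  wlog h : idx j < idx i generalizing i j s t
  · refine this j i hij.symm t s ht hs (e.trans (v44_comm _ _ _ _)) ?_
    have := idx_injective.ne hij
    omega
  have key := sum_v44 (idx_lt i) (idx_lt j) s t
  rw [pt_idx, pt_idx, ← e] at key
  refine ⟨idx i, idx_lt i, idx j, h, ?_⟩
  rcases hs with rfl | rfl <;> rcases ht with rfl | rfl
  · refine Or.inl (Or.inl (hv.eq_code (sal_code (by omega) ?_)))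
    rw [key]; simp
  · refine Or.inl (Or.inr (hv.eq_code (sal_code' (by omega) ?_)))
    rw [key]; simp; ring
  · refine Or.inr (Or.inl (hv.eq_code (sal_code' (by omega) ?_)))
    rw [key]; simp; ring
  · refine Or.inr (Or.inr (hv.eq_code (sal_code' (by omega) ?_)))
    rw [key]; simp; ring

/-- the sum of `F` over the codes of the minimal vectors -/
noncomputable def tot (F : ℕ → ℕ) : ℕ := fourS F + sumLt 16 (pcS F)

theorem cov_tot : Cov tot {a | ∃ v ∈ H16.Min, Code a v} := by
  refine (cov_four.add (cov_sum 16 fun k _ => cov_sum 256 fun j _ =>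
    ((cov_odd (cw (Nat.add (Nat.mul 256 k) j))).add (cov_oct (cw (Nat.add (Nat.mul 256 k) j)))).mono
      (Ψ := fun F => per F (Nat.add (Nat.mul 256 k) j)) (fun _ => force_eq _ _) fun _ h => h)).mono
    (fun _ => rfl) ?_
  rintro a ⟨v, hv, ha⟩
  have hn := mem_Min.1 hv
  have key : ∀ u < 4096, ∃ k < 16, ∃ j < 256, Nat.add (Nat.mul 256 k) j = u := fun u hu =>
    ⟨u / 256, by omega, u % 256, by omega, Nat.div_add_mod u 256⟩
  rcases min_shape v.2 hn with h | ⟨o, ho, h⟩ | ⟨c, hc, h⟩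
  · exact Or.inl ⟨v, ha, hn, h⟩
  · obtain ⟨u, hu, rfl⟩ := exists_cw_of_mem_codeSets ((H16.mem_octads_iff o).1 ho).1
    obtain ⟨k, hk, j, hj, rfl⟩ := key u hu
    exact Or.inr ⟨k, hk, j, hj, Or.inr ⟨v, ha, hn, ((H16.mem_octads_iff _).1 ho).2, h⟩⟩
  · obtain ⟨u, hu, rfl⟩ := exists_cw_of_mem_codeSets hc
    obtain ⟨k, hk, j, hj, rfl⟩ := key u hu
    exact Or.inr ⟨k, hk, j, hj, Or.inl ⟨v, ha, hn, h⟩⟩

theorem tot_eq {F : ℕ → ℕ} {t : ℕ} {ts : List ℕ} (h : fourS F = t)
    (h' : List.Forall₂ (fun k s => pcS F k = s) [0, 1, 2, 3, 4, 5, 6, 7, 8, 9, 10, 11, 12, 13, 14, 15] ts) :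
    tot F = t + ts.sum := by
  have : ts = [0, 1, 2, 3, 4, 5, 6, 7, 8, 9, 10, 11, 12, 13, 14, 15].map (pcS F) := by
    rw [← List.forall₂_eq_eq_eq, List.forall₂_map_right_iff]
    exact h'.flip.imp fun _ _ h => h.symm
  rw [this, tot, h, sumLt_eq]
  simp only [Finset.sum_range_succ, Finset.sum_range_zero, List.map, List.sum_cons, List.sum_nil]
  ring

theorem one0 : pcS (fun _ => 1) 0 = 22784 := by decide +kernel
theorem one1 : pcS (fun _ => 1) 1 = 16384 := by decide +kernel
theorem one2 : pcS (fun _ => 1) 2 = 16384 := by decide +kernel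
theorem one3 : pcS (fun _ => 1) 3 = 11264 := by decide +kernel
theorem one4 : pcS (fun _ => 1) 4 = 16384 := by decide +kernel
theorem one5 : pcS (fun _ => 1) 5 = 11264 := by decide +kernel
theorem one6 : pcS (fun _ => 1) 6 = 11264 := by decide +kernel
theorem one7 : pcS (fun _ => 1) 7 = 8192 := by decide +kernel
theorem one8 : pcS (fun _ => 1) 8 = 16384 := by decide +kernel
theorem one9 : pcS (fun _ => 1) 9 = 11264 := by decide +kernel
theorem one10 : pcS (fun _ => 1) 10 = 11264 := by decide +kernel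
theorem one11 : pcS (fun _ => 1) 11 = 8192 := by decide +kernel
theorem one12 : pcS (fun _ => 1) 12 = 11264 := by decide +kernel
theorem one13 : pcS (fun _ => 1) 13 = 8192 := by decide +kernel
theorem one14 : pcS (fun _ => 1) 14 = 8192 := by decide +kernel
theorem one15 : pcS (fun _ => 1) 15 = 6784 := by decide +kernel
theorem one_four : fourS (fun _ => 1) = 1104 := by decide +kernel

theorem tot_one : tot (fun _ => 1) = 196560 :=
  tot_eq one_four (.cons one0 (.cons one1 (.cons one2 (.cons one3 (.cons one4 (.cons one5 (.cons one6 (.cons one7 (.cons one8 (.cons one9 (.cons one10 (.cons one11 (.cons one12 (.cons one13 (.cons one14 (.cons one15 (.nil)))))))))))))))))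

/-- the multiset of the codes of the minimal vectors -/
theorem exists_enum : ∃ L : Multiset ℕ, (∀ F, tot F = (L.map F).sum) ∧ L.card = 196560 ∧
    ∀ v ∈ H16.Min, ∀ a, Code a v → a ∈ L := by
  obtain ⟨L, h1, h2⟩ := cov_tot
  refine ⟨L, h1, ?_, fun v hv a ha => h2 a ⟨v, hv, ha⟩⟩
  rw [← tot_one, h1]
  simp

theorem eqns_Enum : True := by
  have := @Cov.eq_1
  have := @U.eq_1
  have := @call.eq_1
  have := @baseS.eq_1
  have := @oddS.eq_1
  have := @sg.eq_1
  have := @steps.eq_1
  have := @octS.eq_1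
  have := @per.eq_1
  have := @pcS.eq_1
  have := @fourS.eq_1
  have := @tot.eq_1
  exact True.intro

end H9.Lch
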