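import Cfsg.Agent.Lib.Leech9.Cent
import Cfsg.Agent.Lib.Pres.Alt
import Cfsg.Agent.Lib.ThreeTrans.SymHom

/-! Relations between coded lattice automorphisms; direct products filling a centraliser. -/

set_option autoImplicit false
set_option maxRecDepth 100000

namespace H9.Lch

open Cfsg H15 H16 Subgroup

/-- the elements with the given codes -/
noncomputable def gn (Ps : List ℕ) : ℕ → Co0 := pick 1 (Ps.map el)

/-- their images in the quotient by the centre -/
noncomputable def gq (Ps : List ℕ) (j : ℕ) : Spor.Co1 := mk1 (gn Ps j)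

theorem forall₂_el {Ps : List ℕ} (h : Ps.all okM = true) : List.Forall₂ IsM Ps (Ps.map el) := by
  rw [List.forall₂_map_right_iff, List.forall₂_same]
  exact fun P hP => isM_el (List.all_eq_true.1 h P hP)

theorem isF_gn {Ps : List ℕ} (h : Ps.all okM = true) (j : ℕ) : IsF (letF Ps j) (gn Ps j) :=
  isF_letF (forall₂_el h) j

theorem isM_gn {Ps : List ℕ} (h : Ps.all okM = true) (j : ℕ) : IsM (pick oneM Ps j) (gn Ps j) :=
  pick_rel isM_one (forall₂_el h) j

theorem mk1_wd (Ps w : List ℕ) : mk1 (wd (gn Ps) w) = wd (gq Ps) w := map_wd mk1 _ w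

theorem rel_one {Ps : List ℕ} (h : Ps.all okM = true) {w : List ℕ}
    (e : holds (wF (letF Ps) w) = true) : wd (gq Ps) w = 1 :=
  (mk1_wd Ps w).symm.trans ((isF_wF (isF_gn h) w).mk1_eq_one e)

theorem rel_ne {Ps : List ℕ} (h : Ps.all okM = true) {w : List ℕ}
    (e : fails TV (wF (letF Ps) w) = true) : wd (gq Ps) w ≠ 1 :=
  mk1_wd Ps w ▸ (isF_wF (isF_gn h) w).mk1_ne_one code_TV norm_TV e

/-- two words act in the same way -/
def eqW (F : ℕ → ℕ → ℕ) (v w : List ℕ) : Bool :=
  allLt 24 fun i => Nat.beq (wF F v (e8C i)) (wF F w (e8C i))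

theorem rel_eq {Ps : List ℕ} (h : Ps.all okM = true) {v w : List ℕ}
    (e : eqW (letF Ps) v w = true) : wd (gn Ps) v = wd (gn Ps) w :=
  co0_ext (forall_pt.2 fun i hi => by
    have hn : sqNorm ((e8 (pt i) : leechLattice) : GolayPt → ℤ) ≤ 256 := by
      rw [sqNorm_e8]; norm_num
    exact (isF_wF (isF_gn h) v _ _ (code_e8C hi) hn).eq_vec
      (Nat.eq_of_beq_eq_true (allLt_iff.1 e i hi) ▸ isF_wF (isF_gn h) w _ _ (code_e8C hi) hn))

theorem wd_one {G : Type*} [Group G] (x : ℕ → G) (i : ℕ) : wd x [i] = x i := by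
  rw [wd_cons, wd_nil, mul_one]

theorem wd_two {G : Type*} [Group G] (x : ℕ → G) (i j : ℕ) : wd x [i, j] = x i * x j := by
  rw [wd_cons, wd_one]

theorem comm_gn {Ps : List ℕ} (h : Ps.all okM = true) {i j : ℕ}
    (e : eqW (letF Ps) [i, j] [j, i] = true) : gn Ps i * gn Ps j = gn Ps j * gn Ps i := by
  rw [← wd_two, ← wd_two, rel_eq h e]

theorem comm_gq {Ps : List ℕ} (h : Ps.all okM = true) {i j : ℕ}
    (e : eqW (letF Ps) [i, j] [j, i] = true) : Commute (gq Ps i) (gq Ps j) :=
  (show Commute _ _ from comm_gn h e).map mk1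

theorem pow_gn {Ps : List ℕ} (h : Ps.all okM = true) {i n : ℕ}
    (e : eqW (letF Ps) (List.replicate n i) [] = true) : gn Ps i ^ n = 1 := by
  rw [← wd_replicate, rel_eq h e, wd_nil]

theorem ne_gq {Ps : List ℕ} (h : Ps.all okM = true) {i : ℕ}
    (e : fails TV (wF (letF Ps) [i]) = true) : gq Ps i ≠ 1 := wd_one (gq Ps) i ▸ rel_ne h e

theorem card_cent_mk1 {g : Co0} (ho : Odd (orderOf g)) :
    Nat.card (centralizer ({g} : Set Co0)) = 2 * Nat.card (centralizer ({mk1 g} : Set Spor.Co1)) := by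
  have e : centralizer ({g} : Set Co0) = (centralizer ({mk1 g} : Set Spor.Co1)).comap mk1 := by
    ext x
    rw [mem_comap, mem_centralizer_singleton_iff, mem_centralizer_singleton_iff]
    exact ⟨fun h => by rw [← map_mul, h, map_mul], comm_of_mk1 ho⟩
  have h1 := (centralizer ({g} : Set Co0)).index_mul_card
  have h2 := (centralizer ({mk1 g} : Set Spor.Co1)).index_mul_card
  rw [card_Co0] at h1
  rw [card_sCo1] at h2
  rw [e, index_comap_of_surjective _ mk1_surj, ← e] at h1
  have h3 : (centralizer ({mk1 g} : Set Spor.Co1)).index ≠ 0 := fun h => by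
    rw [h] at h2; simp at h2
  refine Nat.eq_of_mul_eq_mul_left (Nat.pos_of_ne_zero h3) ?_
  rw [h1, mul_left_comm, h2]
  norm_num

/-- the Carmichael relations modulo the centre -/
def carmOk (F : ℕ → ℕ → ℕ) (n : ℕ) : Bool :=
  allLt n fun i => holds (wF F [i, i, i]) && allLt i fun j => holds (wF F [i, j, i, j])

theorem exists_alt {J : Type*} [Group J] (n : ℕ) (hn : 3 ≤ n) (y : ℕ → J)
    (h3 : ∀ i < n, y i ^ 3 = 1) (h2 : ∀ i < n, ∀ j < i, (y i * y j) ^ 2 = 1) (hne : y 0 ≠ 1) :
    ∃ φ : alternatingGroup (Fin (n + 2)) →* J, Function.Injective φ ∧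
      ∀ H : Subgroup J, (∀ i < n, y i ∈ H) → φ.range ≤ H := by
  obtain ⟨φ, hφ⟩ := H40.Alt.carm_hom (ι := Fin n) (fun i => y i) (fun i => h3 i i.2)
    fun i j hij => by
      rcases lt_or_gt_of_ne (Fin.val_injective.ne hij) with h | h
      · have := h2 j j.2 i h
        calc (y i * y j) ^ 2 = y i * (y j * y i) ^ 2 * (y i)⁻¹ := by simp only [sq]; group
          _ = 1 := by rw [this]; group
      · exact h2 i i.2 j h
  have hc : Fintype.card (Fin (n + 2)) = Fintype.card (Fin n ⊕ Bool) := by simp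
  let e := (Fintype.equivOfCardEq hc).altCongrHom
  have := alternatingGroup.isSimpleGroup (α := Fin n ⊕ Bool) (by simp; omega)
  have hi : Function.Injective φ := by
    rw [← MonoidHom.ker_eq_bot_iff]
    refine (IsSimpleGroup.eq_bot_or_eq_top_of_normal _ inferInstance).resolve_right fun h => hne ?_
    refine (hφ ⟨0, by omega⟩).symm.trans ?_
    rw [← MonoidHom.mem_ker, h]
    trivial
  refine ⟨φ.comp e.toMonoidHom, hi.comp e.injective, fun H hH => ?_⟩
  · refine le_trans ?_ (H40.Alt.range_le_of_xa φ H fun i => hφ i ▸ hH i i.2)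
    rintro _ ⟨x, rfl⟩
    exact ⟨e x, rfl⟩

theorem exists_alt_gq {Ps : List ℕ} (h : Ps.all okM = true) (n : ℕ) (hn : 3 ≤ n)
    (c : carmOk (letF Ps) n = true) (c' : fails TV (wF (letF Ps) [0]) = true) :
    ∃ φ : alternatingGroup (Fin (n + 2)) →* Spor.Co1, Function.Injective φ ∧
      ∀ H : Subgroup Spor.Co1, (∀ i < n, gq Ps i ∈ H) → φ.range ≤ H := by
  have c1 := fun i hi => Bool.and_eq_true_iff.1 (allLt_iff.1 c i hi)
  refine exists_alt n hn _ (fun i hi => ?_) (fun i hi j hj => ?_) (ne_gq h c')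
  · rw [← wd_replicate]; exact rel_one h (c1 i hi).1
  · rw [sq, ← wd_two, ← wd_append]; exact rel_one h (allLt_iff.1 (c1 i hi).2 j hj)

theorem prod_equiv {A B G : Type*} [Group A] [Group B] [Group G] (f : A →* G) (k : B →* G)
    (hf : Function.Injective f) (hk : Function.Injective k) (comm : ∀ a b, Commute (f a) (k b))
    (hB : center B = ⊥) (H : Subgroup G) [Finite H] (h1 : f.range ≤ H) (h2 : k.range ≤ H)
    (hc : Nat.card H ≤ Nat.card A * Nat.card B) : Nonempty (H ≃* A × B) := by
  have hi : Function.Injective (f.noncommCoprod k comm) := by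
    refine (MonoidHom.noncommCoprod_injective f k comm).2 ⟨hf, hk, disjoint_def.2 ?_⟩
    rintro _ ⟨a, rfl⟩ ⟨b, e⟩
    have : b ∈ center B := mem_center_iff.2 fun c => hk (by rw [map_mul, map_mul, e, comm a c])
    rw [hB, mem_bot] at this
    rw [← e, this, map_one]
  have hle : (f.noncommCoprod k comm).range ≤ H := by
    rintro _ ⟨x, rfl⟩
    exact mul_mem (h1 ⟨x.1, rfl⟩) (h2 ⟨x.2, rfl⟩)
  have e := MonoidHom.ofInjective hi
  have : (f.noncommCoprod k comm).range = H :=
    eq_of_le_of_card_ge hle (by rw [← Nat.card_congr e.toEquiv, Nat.card_prod]; exact hc)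
  exact ⟨(e.trans (MulEquiv.subgroupCongr this)).symm⟩

theorem cent_zpowers {G : Type*} [Group G] (x : G) :
    centralizer (zpowers x : Set G) = centralizer {x} := by
  rw [zpowers_eq_closure, centralizer_closure]

theorem card_norm_le {G : Type*} [Group G] [Finite G] (x : G) :
    Nat.card (normalizer (zpowers x : Set G)) ≤
      (orderOf x).totient * Nat.card (centralizer ({x} : Set G)) := by
  have h := (zpowers x).normalizerMonoidHom.ker.index_mul_card
  rw [index_ker, normalizerMonoidHom_ker, Nat.card_congr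
    (subgroupOfEquivOfLe (centralizer_le_normalizer (zpowers x : Set G))).toEquiv, cent_zpowers] at h
  rw [← h, ← Nat.card_zpowers, ← IsCyclic.card_mulAut]
  exact Nat.mul_le_mul_right _ (card_le_card_group _)

theorem cent_map {G G' : Type*} [Group G] [Group G'] (e : G ≃* G') (V : Subgroup G) :
    Nonempty (centralizer (V.map e.toMonoidHom : Set G') ≃* centralizer (V : Set G)) := by
  have : (centralizer (V : Set G)).map e.toMonoidHom = centralizer (V.map e.toMonoidHom : Set G') := by
    refine le_antisymm (map_centralizer_le_centralizer_image _ _) fun x hx => ?_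
    refine ⟨e.symm x, fun y hy => e.injective ?_, e.apply_symm_apply x⟩
    rw [map_mul, map_mul, e.apply_symm_apply]
    exact hx _ ⟨y, hy, rfl⟩
  exact ⟨((e.subgroupMap _).trans (MulEquiv.subgroupCongr this)).symm⟩

theorem norm_map {G G' : Type*} [Group G] [Group G'] (e : G ≃* G') (V : Subgroup G) :
    Nonempty (normalizer (V.map e.toMonoidHom : Set G') ≃* normalizer (V : Set G)) :=
  ⟨((e.subgroupMap _).trans (MulEquiv.subgroupCongr (map_equiv_normalizer_eq V e))).symm⟩

theorem eqns_Rel : True := by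
  have := @gn.eq_1
  have := @gq.eq_1
  have := @eqW.eq_1
  have := @carmOk.eq_1
  exact True.intro

end H9.Lch
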